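import Mathlib
import Cfsg.Agent.Lib.Helper17.Basic
import Cfsg.Agent.Lib.Helper74.O720.Defs

set_option autoImplicit false

/-! FARM O720 (helper74): pieces T0, T0c (proved by helper22). -/

namespace Cfsg.Agent.Lib.Helper74.O720

variable {G : Type*} [Group G] [Finite G] [IsSimpleGroup G]

/-- [T0] -/
theorem index_ge (h : Nat.card G = 720) (H : Subgroup G) (hH : H ≠ ⊤) : 8 ≤ H.index := by
  have hnc : ¬ IsMulCommutative G :=
    Cfsg.Agent.Lib.Helper17.not_comm_of_not_prime (by rw [h]; norm_num)
  have h1 := Cfsg.Agent.Lib.Helper17.two_mul_card_dvd_factorial_index hnc H hH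
  rw [h] at h1
  by_contra hlt
  push Not at hlt
  generalize H.index = n at *
  interval_cases n <;> revert h1 <;> decide

/-- [T0c] -/
theorem max72 (h : Nat.card G = 720) (M K : Subgroup G) (hM : Nat.card M = 72) (hMK : M ≤ K) :
    K = M ∨ K = ⊤ := by
  by_cases hK : K = ⊤
  · exact Or.inr hK
  · left
    have h8 := index_ge h K hK
    have h1 := K.card_mul_index
    rw [h] at h1
    obtain ⟨m, hm⟩ := Subgroup.card_dvd_of_le hMK
    rw [hM] at hm
    symm
    apply Subgroup.eq_of_le_of_card_ge hMK
    rw [hM]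
    rw [hm] at h1 ⊢
    have hm2 : m < 2 := by
      by_contra hc
      push Not at hc
      have : 72 * 2 * 8 ≤ 72 * m * K.index := by
        apply Nat.mul_le_mul _ h8
        omega
      omega
    interval_cases m <;> omega

end Cfsg.Agent.Lib.Helper74.O720
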