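import Mathlib
import Cfsg.Agent.S0904
import Cfsg.Agent.Lib.Helper17.Basic
import Cfsg.Agent.Lib.Helper25.O496.O612
import Cfsg.Agent.Lib.Helper50.O720.A40
import Cfsg.Agent.Lib.Helper22.O720.T0

set_option autoImplicit false
set_option linter.style.haveILetI false
set_option linter.unusedSectionVars false

/-! FARM O720 (helper74): piece C1 (proved by helper22). -/

namespace Cfsg.Agent.Lib.Helper74.O720

variable {G : Type*} [Group G] [Finite G] [IsSimpleGroup G]

theorem C1_no15 (h : Nat.card G = 720) (X : Subgroup G) (hX : Nat.card X = 3) :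
    ¬ 5 ∣ Nat.card (Cz X) := by
  haveI : Fact (Nat.Prime 5) := ⟨by norm_num⟩
  haveI : Fact (Nat.Prime 3) := ⟨by norm_num⟩
  intro hdvd
  obtain ⟨y, hy⟩ := exists_prime_orderOf_dvd_card' (G := Cz X) 5 hdvd
  have hy5 : orderOf (y : G) = 5 := by rw [Subgroup.orderOf_coe]; exact hy
  have hy1 : (y : G) ≠ 1 := by
    intro h1
    rw [h1, orderOf_one] at hy5
    omega
  have hpg : IsPGroup 5 (Subgroup.zpowers (y : G)) :=
    IsPGroup.of_card (n := 1) (by rw [Nat.card_zpowers, hy5]; norm_num)
  obtain ⟨S, hS⟩ := hpg.exists_le_sylow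
  have cS : Nat.card (S : Subgroup G) = 5 := by
    simpa using (Cfsg.Agent.Lib.Helper17.sylow_card_index S
      (show Nat.card G = 5 ^ 1 * 144 by rw [h]; norm_num) (by norm_num)).1
  have cC : Subgroup.centralizer ((S : Subgroup G) : Set G) = S :=
    Cfsg.Agent.S0904.result 2 3 5 4 2 Nat.prime_two Nat.prime_three (by norm_num) (by norm_num)
      (by norm_num) (by rw [h]; norm_num) S
  obtain ⟨x, hx⟩ := exists_prime_orderOf_dvd_card' (G := X) 3 (by rw [hX])
  have hx3 : orderOf (x : G) = 3 := by rw [Subgroup.orderOf_coe]; exact hx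
  have hcomm : (x : G) * (y : G) = (y : G) * (x : G) := (Subgroup.mem_centralizer_iff.1 y.2) x x.2
  have hxS := Cfsg.Agent.Lib.Helper25.O496.o612_cent S cS cC (hS (Subgroup.mem_zpowers _)) hy1 hcomm
  have := orderOf_dvd_natCard (⟨(x : G), hxS⟩ : (S : Subgroup G))
  rw [cS, Subgroup.orderOf_mk, hx3] at this
  omega

/-- [C1] -/
theorem C1 (h : Nat.card G = 720) (h40 : Nat.card (Sylow 3 G) = 40) (X : Subgroup G) (hX : Nat.card X = 3)
    (P1 P2 : Sylow 3 G) (h12 : P1 ≠ P2) (h1 : X ≤ (P1 : Subgroup G)) (h2 : X ≤ (P2 : Subgroup G)) :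
    Nat.card (Cz X) = 36 := by
  haveI : Fact (Nat.Prime 3) := ⟨by norm_num⟩
  have hP1H : (P1 : Subgroup G) ≤ Cz X := by
    intro a ha
    rw [Subgroup.mem_centralizer_iff]
    intro z hz
    exact comm_P h P1 z (h1 hz) a ha
  have hP2H : (P2 : Subgroup G) ≤ Cz X := by
    intro a ha
    rw [Subgroup.mem_centralizer_iff]
    intro z hz
    exact comm_P h P2 z (h2 hz) a ha
  have e2 := ((P1 : Subgroup G).subgroupOf (Cz X)).card_mul_index
  rw [Cfsg.Agent.Lib.Helper17.card_subgroupOf_of_le hP1H, card_P h P1] at e2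
  obtain ⟨x, hx⟩ := exists_prime_orderOf_dvd_card' (G := X) 3 (by rw [hX])
  have hx3 : orderOf (x : G) = 3 := by rw [Subgroup.orderOf_coe]; exact hx
  have hQ : ((P1.subtype hP1H : Sylow 3 (Cz X)) : Subgroup (Cz X)) =
      (P1 : Subgroup G).subgroupOf (Cz X) := Sylow.coe_subtype P1 hP1H
  have hNQ : Subgroup.normalizer (((P1 : Subgroup G).subgroupOf (Cz X) : Subgroup (Cz X)) : Set (Cz X))
      = (P1 : Subgroup G).subgroupOf (Cz X) := by
    apply le_antisymm _ Subgroup.le_normalizer
    intro n hn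
    rw [Subgroup.mem_subgroupOf]
    by_contra hnP
    have fwd : ∀ z ∈ (P1 : Subgroup G), (n : G) * z * (n : G)⁻¹ ∈ (P1 : Subgroup G) := by
      intro z hz
      have := (Subgroup.mem_normalizer_iff.1 hn ⟨z, hP1H hz⟩).1
        (by rw [Subgroup.mem_subgroupOf]; exact hz)
      rw [Subgroup.mem_subgroupOf] at this
      exact this
    have hnN : (n : G) ∈ Nz (P1 : Subgroup G) := by
      apply mem_Nz_of_cj_eq
      apply Subgroup.eq_of_le_of_card_ge
      · intro w hw
        rw [mem_cj] at hw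
        have := fwd _ hw
        simpa [mul_assoc] using this
      · rw [card_cj]
    have hinv := A40 h h40 P1 (n : G) hnN hnP (x : G) (h1 x.2)
    have hcomm : (x : G) * (n : G) = (n : G) * (x : G) := (Subgroup.mem_centralizer_iff.1 n.2) x x.2
    have hxx : (x : G) = (x : G)⁻¹ := by
      rw [← hinv, ← hcomm]
      group
    have hsq : (x : G) ^ 2 = 1 := by
      rw [pow_two]
      nth_rewrite 1 [hxx]
      exact inv_mul_cancel _
    have := orderOf_dvd_of_pow_eq_one hsq
    rw [hx3] at this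
    omega
  have hn3 : Nat.card (Sylow 3 (Cz X)) = ((P1 : Subgroup G).subgroupOf (Cz X)).index := by
    have e := (P1.subtype hP1H : Sylow 3 (Cz X)).card_eq_index_normalizer
    have e' : Subgroup.normalizer (((P1.subtype hP1H : Sylow 3 (Cz X)) : Subgroup (Cz X)) : Set (Cz X))
        = (P1 : Subgroup G).subgroupOf (Cz X) := by rw [hQ, hNQ]
    rw [e]
    exact congrArg Subgroup.index e'
  have hmod := card_sylow_modEq_one 3 (Cz X)
  rw [hn3] at hmod
  have hdvd : Nat.card (Cz X) ∣ 720 := h ▸ Subgroup.card_subgroup_dvd_card (Cz X)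
  have h5 := C1_no15 h X hX
  have hk1 : ((P1 : Subgroup G).subgroupOf (Cz X)).index ≠ 1 := by
    intro hk
    rw [hk, mul_one] at e2
    have a1 : (P1 : Subgroup G) = Cz X :=
      Subgroup.eq_of_le_of_card_ge hP1H (by rw [← e2, card_P h P1])
    have a2 : (P2 : Subgroup G) = Cz X :=
      Subgroup.eq_of_le_of_card_ge hP2H (by rw [← e2, card_P h P2])
    exact h12 (Sylow.ext (a1.trans a2.symm))
  have hk16 : ((P1 : Subgroup G).subgroupOf (Cz X)).index ≠ 16 := by
    intro hk
    rw [hk] at e2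
    have hne : Cz X ≠ ⊤ := by
      intro htop
      rw [htop, Subgroup.card_top, h] at e2
      omega
    have h8 := index_ge h (Cz X) hne
    have h9 := (Cz X).card_mul_index
    rw [← e2, h] at h9
    omega
  rw [← e2] at hdvd h5 ⊢
  unfold Nat.ModEq at hmod
  have hle : ((P1 : Subgroup G).subgroupOf (Cz X)).index ≤ 80 := by
    have := Nat.le_of_dvd (by norm_num) hdvd
    omega
  generalize ((P1 : Subgroup G).subgroupOf (Cz X)).index = k at *
  interval_cases k <;> omega

end Cfsg.Agent.Lib.Helper74.O720
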