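import Mathlib
import Cfsg.Agent.Lib.Helper17.Basic
import Cfsg.Agent.Lib.Helper74.O720.Defs

set_option autoImplicit false

/-! FARM O720 (helper74): piece ZA (proved by helper22). -/

namespace Cfsg.Agent.Lib.Helper74.O720

variable {G : Type*} [Group G] [Finite G] [IsSimpleGroup G]

/-- [ZA] -/
theorem ZA (M : Subgroup G) (hM : M ≠ ⊤) : FaithfulSMul G (G ⧸ M) :=
  ⟨fun {_ _} h => Cfsg.Agent.Lib.Helper17.toPermHom_injective M hM (Equiv.ext h)⟩

end Cfsg.Agent.Lib.Helper74.O720
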